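import Mathlib
import Cfsg.Agent.Lib.Helper70.BG.S1421Defs
import Cfsg.Agent.Lib.Helper67.BG.Basics

/-!
S1421 (Bender–Glauberman Lemma 12.12), package A9 of helper70's team project — helper3.

`lemA9 : LemF → LemC → LemD → LemA9`: an `E`-invariant subgroup `D ≤ P` with the exponent of `P`
all of whose non-identity elements act regularly on `M_σ`.
-/

set_option autoImplicit false

namespace Cfsg.Agent.Lib.Helper3.BG

open Cfsg Cfsg.Agent.Lib.Helper70.BG21

open scoped commutatorElement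

universe u

variable {G : Type u} [Group G]

/-! ### Small generic tools -/

theorem a9_comm {P : Subgroup G} (hP : IsMulCommutative P) {x y : G} (hx : x ∈ P) (hy : y ∈ P) :
    x * y = y * x :=
  congrArg Subtype.val (hP.is_comm.comm ⟨x, hx⟩ ⟨y, hy⟩)

theorem a9_le_normalizer {S V : Subgroup G}
    (h : ∀ g ∈ S, ∀ v ∈ V, g * v * g⁻¹ ∈ V) : S ≤ Subgroup.normalizer (V : Set G) := by
  intro g hg
  rw [Subgroup.mem_normalizer_iff]
  intro v
  constructor
  · exact h g hg v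
  · intro hv
    have := h g⁻¹ (S.inv_mem hg) _ hv
    have e : g⁻¹ * (g * v * g⁻¹) * g⁻¹⁻¹ = v := by group
    rwa [e] at this

theorem a9_norm_inf {N D A : Subgroup G} (h1 : N ≤ Subgroup.normalizer (D : Set G))
    (h2 : N ≤ Subgroup.normalizer (A : Set G)) :
    N ≤ Subgroup.normalizer ((D ⊓ A : Subgroup G) : Set G) := by
  apply a9_le_normalizer
  intro g hg x hx
  rw [Subgroup.mem_inf] at hx ⊢
  exact ⟨(Subgroup.mem_normalizer_iff.mp (h1 hg) x).mp hx.1,
    (Subgroup.mem_normalizer_iff.mp (h2 hg) x).mp hx.2⟩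

/-- A `p`-element normalizing a Sylow `p`-subgroup lies in it. -/
theorem a9_mem_sylow_of_normalizer {p : ℕ} [Fact p.Prime] (S : Sylow p G) {x : G}
    (hx : x ∈ Subgroup.normalizer ((S : Subgroup G) : Set G)) {k : ℕ} (hk : x ^ p ^ k = 1) :
    x ∈ (S : Subgroup G) := by
  have h1 : IsPGroup p (Subgroup.zpowers x) := by
    rintro ⟨y, hy⟩
    obtain ⟨m, rfl⟩ := Subgroup.mem_zpowers_iff.mp hy
    refine ⟨k, Subtype.ext ?_⟩
    change (x ^ m) ^ p ^ k = 1
    rw [← zpow_natCast, ← zpow_mul, mul_comm, zpow_mul, zpow_natCast, hk, one_zpow]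
  have h2 : Subgroup.zpowers x ≤ Subgroup.normalizer ((S : Subgroup G) : Set G) :=
    (Subgroup.zpowers_le).mpr hx
  have h3 : IsPGroup p (Subgroup.zpowers x ⊔ (S : Subgroup G) : Subgroup G) :=
    IsPGroup.to_sup_of_normal_right' h1 S.isPGroup' h2
  have h4 := S.is_maximal' h3 le_sup_right
  have h5 : x ∈ (Subgroup.zpowers x ⊔ (S : Subgroup G) : Subgroup G) :=
    (le_sup_left : Subgroup.zpowers x ≤ _) (Subgroup.mem_zpowers x)
  rw [h4] at h5
  exact h5

/-- The `p'`-part exponent. -/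
theorem a9_exists_coprime_pow [Finite G] (p : ℕ) [Fact p.Prime] (n : G) :
    ∃ m k : ℕ, ¬ p ∣ m ∧ (n ^ m) ^ p ^ k = 1 := by
  have hp : p.Prime := Fact.out
  have ho : orderOf n ≠ 0 := (orderOf_pos n).ne'
  obtain ⟨k, m, hm, hkm⟩ := Nat.exists_eq_pow_mul_and_not_dvd ho p hp.ne_one
  refine ⟨m, k, hm, ?_⟩
  rw [← pow_mul, mul_comm, ← hkm, pow_orderOf_eq_one]

/-- An element of largest order in a finite `p`-group. -/
theorem a9_exists_top [Finite G] {p : ℕ} [Fact p.Prime] {P : Subgroup G} (hP : IsPGroup p P) :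
    ∃ d ∈ P, ∃ a : ℕ, orderOf d = p ^ a ∧ ∀ x ∈ P, x ^ p ^ a = 1 := by
  have hp : p.Prime := Fact.out
  have hord : ∀ x ∈ P, ∃ a : ℕ, orderOf x = p ^ a := by
    intro x hx
    obtain ⟨a, ha⟩ := hP ⟨x, hx⟩
    have h1 : x ^ p ^ a = 1 := congrArg Subtype.val ha
    obtain ⟨j, -, hj⟩ := (Nat.dvd_prime_pow hp).mp (orderOf_dvd_of_pow_eq_one h1)
    exact ⟨j, hj⟩
  obtain ⟨d, hdP, hmax⟩ : ∃ d ∈ P, ∀ x ∈ P, orderOf x ≤ orderOf d := by
    have hfin : (P : Set G).Finite := Set.toFinite _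
    obtain ⟨d, hd, hmax⟩ := Set.exists_max_image (P : Set G) orderOf hfin ⟨1, P.one_mem⟩
    exact ⟨d, hd, hmax⟩
  obtain ⟨a, ha⟩ := hord d hdP
  refine ⟨d, hdP, a, ha, ?_⟩
  intro x hx
  obtain ⟨b, hb⟩ := hord x hx
  have hle : p ^ b ≤ p ^ a := by rw [← hb, ← ha]; exact hmax x hx
  have hba : b ≤ a := (Nat.pow_le_pow_iff_right hp.one_lt).mp hle
  have h3 : orderOf x ∣ p ^ a := by rw [hb]; exact pow_dvd_pow p hba
  exact orderOf_dvd_iff_pow_eq_one.mp h3

theorem a9_exponent_eq {D P : Subgroup G} (hDP : D ≤ P) {d : G} (hd : d ∈ D)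
    (htop : ∀ x ∈ P, x ^ orderOf d = 1) : Monoid.exponent D = Monoid.exponent P := by
  apply Nat.dvd_antisymm
  · apply Monoid.exponent_dvd_of_forall_pow_eq_one
    intro x
    have h1 := Monoid.pow_exponent_eq_one (⟨x.1, hDP x.2⟩ : P)
    have h2 := congrArg Subtype.val h1
    apply Subtype.ext
    simpa using h2
  · have h1 : Monoid.exponent P ∣ orderOf d := by
      apply Monoid.exponent_dvd_of_forall_pow_eq_one
      intro x
      apply Subtype.ext
      simpa using htop x.1 x.2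
    have h2 : orderOf d ∣ Monoid.exponent D := by
      have h3 := Monoid.order_dvd_exponent (⟨d, hd⟩ : D)
      rwa [Subgroup.orderOf_mk] at h3
    exact h1.trans h2

/-- A non-identity element of a `p`-group has a power of order `p`. -/
theorem a9_exists_order_p {p : ℕ} [Fact p.Prime] {P : Subgroup G} (hP : IsPGroup p P) {e : G}
    (he : e ∈ P) (he1 : e ≠ 1) : ∃ j : ℕ, e ^ j ≠ 1 ∧ (e ^ j) ^ p = 1 := by
  classical
  obtain ⟨a, ha⟩ := hP ⟨e, he⟩
  have h1 : e ^ p ^ a = 1 := congrArg Subtype.val ha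
  have hex : ∃ a : ℕ, e ^ p ^ a = 1 := ⟨a, h1⟩
  have h2 : e ^ p ^ (Nat.find hex) = 1 := Nat.find_spec hex
  have h3 : Nat.find hex ≠ 0 := by
    intro h0
    rw [h0, pow_zero, pow_one] at h2
    exact he1 h2
  obtain ⟨b, hb⟩ := Nat.exists_eq_succ_of_ne_zero h3
  refine ⟨p ^ b, ?_, ?_⟩
  · intro h4
    exact Nat.find_min hex (m := b) (by rw [hb]; exact Nat.lt_succ_self b) h4
  · rw [← pow_mul, ← pow_succ]
    rw [hb] at h2
    exact h2

/-- If a power of `e` is a non-identity element of a regular subgroup `L` of prime order, then `e`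
is regular. -/
theorem a9_reg_of_line [Finite G] {p : ℕ} [Fact p.Prime] {V L : Subgroup G}
    (hL : Nat.card L = p)
    (hreg : V ⊓ Subgroup.centralizer (L : Set G) = ⊥) {e : G} {j : ℕ} (hjL : e ^ j ∈ L)
    (hj1 : e ^ j ≠ 1) : V ⊓ Subgroup.centralizer ({e} : Set G) = ⊥ := by
  have hp : p.Prime := Fact.out
  have hz : Subgroup.zpowers (e ^ j) = L := by
    apply Subgroup.eq_of_le_of_card_ge ((Subgroup.zpowers_le).mpr hjL)
    rw [hL, Nat.card_zpowers]
    have h1 : orderOf (e ^ j) ∣ p := by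
      rw [← hL]
      have h2 := orderOf_dvd_natCard (⟨e ^ j, hjL⟩ : L)
      rwa [Subgroup.orderOf_mk] at h2
    rcases (Nat.dvd_prime hp).mp h1 with h | h
    · exact absurd (orderOf_eq_one_iff.mp h) hj1
    · exact h.ge
  rw [eq_bot_iff]
  intro x hx
  rw [Subgroup.mem_inf] at hx
  rw [← hreg, Subgroup.mem_inf]
  refine ⟨hx.1, ?_⟩
  rw [← hz, Subgroup.mem_centralizer_iff]
  intro y hy
  obtain ⟨m, rfl⟩ := Subgroup.mem_zpowers_iff.mp hy
  have hxe : e * x = x * e := Subgroup.mem_centralizer_iff.mp hx.2 e (Set.mem_singleton e)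
  exact ((Commute.pow_left (show Commute e x from hxe) j).zpow_left m).eq

/-- In a cyclic group of order `p ^ (b + 1)` the elements of order dividing `p` are powers of
`d ^ p ^ b`. -/
theorem a9_mem_zpowers_of_pow_p {p : ℕ} [Fact p.Prime] {d : G} {b : ℕ}
    (hd : orderOf d = p ^ (b + 1)) {y : G} (hy : y ∈ Subgroup.zpowers d) (hyp : y ^ p = 1) :
    y ∈ Subgroup.zpowers (d ^ p ^ b) := by
  have hp : p.Prime := Fact.out
  obtain ⟨i, rfl⟩ := Subgroup.mem_zpowers_iff.mp hy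
  have h1 : d ^ (i * (p : ℤ)) = 1 := by rw [zpow_mul, zpow_natCast]; exact hyp
  have h2 : ((orderOf d : ℕ) : ℤ) ∣ i * (p : ℤ) := orderOf_dvd_iff_zpow_eq_one.mpr h1
  rw [hd] at h2
  have h3 : ((p ^ b : ℕ) : ℤ) ∣ i := by
    have h4 : ((p ^ b : ℕ) : ℤ) * (p : ℤ) ∣ i * (p : ℤ) := by
      have h5 : ((p ^ (b + 1) : ℕ) : ℤ) = ((p ^ b : ℕ) : ℤ) * (p : ℤ) := by push_cast; ring
      rwa [h5] at h2
    exact Int.dvd_of_mul_dvd_mul_right (by exact_mod_cast hp.ne_zero) h4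
  obtain ⟨c, hc⟩ := h3
  rw [Subgroup.mem_zpowers_iff]
  refine ⟨c, ?_⟩
  rw [hc, zpow_mul, zpow_natCast]

theorem a9_card_sub [Finite G] {p : ℕ} [Fact p.Prime] {A X : Subgroup G}
    (hA : Nat.card A = p ^ 2) (hX : X ≤ A) :
    Nat.card X = 1 ∨ Nat.card X = p ∨ Nat.card X = p ^ 2 := by
  have hp : p.Prime := Fact.out
  have h1 : Nat.card X ∣ p ^ 2 := by rw [← hA]; exact Subgroup.card_dvd_of_le hX
  obtain ⟨j, hj, hj'⟩ := (Nat.dvd_prime_pow hp).mp h1
  interval_cases j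
  · left; simpa using hj'
  · right; left; simpa using hj'
  · right; right; exact hj'

theorem a9_mem_centralizer_of_card [Finite G] {A : Subgroup G} {w : G}
    (h : Nat.card (A ⊓ Subgroup.centralizer ({w} : Set G) : Subgroup G) = Nat.card A) :
    w ∈ Subgroup.centralizer (A : Set G) := by
  have h1 : A ⊓ Subgroup.centralizer ({w} : Set G) = A :=
    Subgroup.eq_of_le_of_card_ge inf_le_left h.ge
  rw [Subgroup.mem_centralizer_iff]
  intro a ha
  have ha' : a ∈ A ⊓ Subgroup.centralizer ({w} : Set G) := by rw [h1]; exact ha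
  exact (Subgroup.mem_centralizer_iff.mp (Subgroup.mem_inf.mp ha').2 w (Set.mem_singleton w)).symm

theorem a9_pow_pred {p : ℕ} [Fact p.Prime] {x : G} {a : ℕ} (h1 : x ^ p ^ a = 1)
    (h2 : orderOf x ≠ p ^ a) : x ^ p ^ (a - 1) = 1 := by
  have hp : p.Prime := Fact.out
  obtain ⟨i, hi, hi'⟩ := (Nat.dvd_prime_pow hp).mp (orderOf_dvd_of_pow_eq_one h1)
  have hia : i ≠ a := fun h => h2 (h ▸ hi')
  have h3 : i ≤ a - 1 := by omega
  apply orderOf_dvd_iff_pow_eq_one.mp
  rw [hi']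
  exact pow_dvd_pow p h3

theorem a9_mem_of_pow_mem_coprime {H : Subgroup G} {z : G} {q r : ℕ} (hcop : q.Coprime r)
    (hq : z ^ q ∈ H) (hr : z ^ r ∈ H) : z ∈ H := by
  obtain ⟨u, v, huv⟩ : IsCoprime (q : ℤ) (r : ℤ) := Nat.isCoprime_iff_coprime.mpr hcop
  have h1 : z = (z ^ q) ^ u * (z ^ r) ^ v := by
    rw [← zpow_natCast z q, ← zpow_natCast z r, ← zpow_mul, ← zpow_mul, ← zpow_add,
      mul_comm (q : ℤ), mul_comm (r : ℤ), huv, zpow_one]
  rw [h1]
  exact H.mul_mem (H.zpow_mem hq u) (H.zpow_mem hr v)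

/-- An element of `E \ H` of least order is a `q`-element whose `q`-th power lies in `H`. -/
theorem a9_exists_min_prime_power [Finite G] {E H : Subgroup G} (hnot : ¬ E ≤ H) :
    ∃ z ∈ E, z ∉ H ∧ ∃ q : ℕ, q.Prime ∧ (∃ k : ℕ, z ^ q ^ k = 1) ∧ z ^ q ∈ H := by
  classical
  have hex : ∃ o : ℕ, ∃ e ∈ E, e ∉ H ∧ orderOf e = o := by
    obtain ⟨e, heE, heH⟩ := SetLike.not_le_iff_exists.mp hnot
    exact ⟨_, e, heE, heH, rfl⟩
  obtain ⟨z, hzE, hzH, hzo⟩ := Nat.find_spec hex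
  have hmin : ∀ e ∈ E, orderOf e < orderOf z → e ∈ H := by
    intro e he hlt
    by_contra heH
    exact Nat.find_min hex (by rw [← hzo]; exact hlt) ⟨e, he, heH, rfl⟩
  have hz1 : orderOf z ≠ 1 := by
    intro h
    rw [orderOf_eq_one_iff] at h
    exact hzH (h ▸ H.one_mem)
  have hpos : 0 < orderOf z := orderOf_pos z
  have hpow : ∀ r : ℕ, r.Prime → r ∣ orderOf z → z ^ r ∈ H := by
    intro r hr hdvd
    apply hmin _ (E.pow_mem hzE r)
    rw [orderOf_pow_of_dvd hr.ne_zero hdvd]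
    exact Nat.div_lt_self hpos hr.one_lt
  have hq : (orderOf z).minFac.Prime := Nat.minFac_prime hz1
  have hqd : (orderOf z).minFac ∣ orderOf z := Nat.minFac_dvd _
  refine ⟨z, hzE, hzH, (orderOf z).minFac, hq, ?_, hpow _ hq hqd⟩
  obtain ⟨k, m, hm, hkm⟩ := Nat.exists_eq_pow_mul_and_not_dvd hpos.ne' (orderOf z).minFac hq.ne_one
  by_cases hm1 : m = 1
  · refine ⟨k, ?_⟩
    have h1 : orderOf z = (orderOf z).minFac ^ k := by rw [hm1, mul_one] at hkm; exact hkm
    rw [← h1]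
    exact pow_orderOf_eq_one z
  · exfalso
    have hr : m.minFac.Prime := Nat.minFac_prime hm1
    have hrm : m.minFac ∣ m := Nat.minFac_dvd m
    have hrd : m.minFac ∣ orderOf z := hrm.trans (Dvd.intro_left _ hkm.symm)
    have hne : (orderOf z).minFac ≠ m.minFac := by
      intro h
      apply hm
      rw [h]
      exact hrm
    have hcop : ((orderOf z).minFac).Coprime m.minFac := (Nat.coprime_primes hq hr).mpr hne
    exact hzH (a9_mem_of_pow_mem_coprime hcop (hpow _ hq hqd) (hpow _ hr hrd))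

/-! ### Power kernel and power image in an abelian subgroup -/

/-- `{x ∈ P | x ^ k = 1}` for an abelian subgroup `P`. -/
def a9_powKer (P : Subgroup G) (hP : ∀ x ∈ P, ∀ y ∈ P, x * y = y * x) (k : ℕ) : Subgroup G where
  carrier := {x | x ∈ P ∧ x ^ k = 1}
  mul_mem' := by
    rintro x y ⟨hx, hx'⟩ ⟨hy, hy'⟩
    exact ⟨P.mul_mem hx hy, by
      rw [(show Commute x y from hP x hx y hy).mul_pow, hx', hy', one_mul]⟩
  one_mem' := ⟨P.one_mem, one_pow k⟩
  inv_mem' := by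
    rintro x ⟨hx, hx'⟩
    exact ⟨P.inv_mem hx, by rw [inv_pow, hx', inv_one]⟩

theorem a9_mem_powKer {P : Subgroup G} {hP : ∀ x ∈ P, ∀ y ∈ P, x * y = y * x} {k : ℕ} {x : G} :
    x ∈ a9_powKer P hP k ↔ x ∈ P ∧ x ^ k = 1 := Iff.rfl

/-- `{x ^ k | x ∈ P}` for an abelian subgroup `P`. -/
def a9_powIm (P : Subgroup G) (hP : ∀ x ∈ P, ∀ y ∈ P, x * y = y * x) (k : ℕ) : Subgroup G where
  carrier := {y | ∃ x ∈ P, x ^ k = y}
  mul_mem' := by
    rintro _ _ ⟨x, hx, rfl⟩ ⟨y, hy, rfl⟩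
    exact ⟨x * y, P.mul_mem hx hy, (show Commute x y from hP x hx y hy).mul_pow k⟩
  one_mem' := ⟨1, P.one_mem, one_pow k⟩
  inv_mem' := by
    rintro _ ⟨x, hx, rfl⟩
    exact ⟨x⁻¹, P.inv_mem hx, inv_pow x k⟩

theorem a9_mem_powIm {P : Subgroup G} {hP : ∀ x ∈ P, ∀ y ∈ P, x * y = y * x} {k : ℕ} {y : G} :
    y ∈ a9_powIm P hP k ↔ ∃ x ∈ P, x ^ k = y := Iff.rfl

/-! ### The centre of `V` as a subgroup of `G` -/

theorem a9_center_ne_bot {V : Subgroup G} (hnil : Group.IsNilpotent V) (hV : V ≠ ⊥) :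
    V ⊓ Subgroup.centralizer (V : Set G) ≠ ⊥ := by
  have : Nontrivial V := (Subgroup.nontrivial_iff_ne_bot V).mpr hV
  have h1 := Group.IsNilpotent.center_ne_bot (G := V)
  obtain ⟨⟨c, hc⟩, hc1⟩ := (Subgroup.ne_bot_iff_exists_ne_one).mp h1
  intro hbot
  have hmem : (c : G) ∈ V ⊓ Subgroup.centralizer (V : Set G) := by
    refine Subgroup.mem_inf.mpr ⟨c.2, ?_⟩
    rw [Subgroup.mem_centralizer_iff]
    intro v hv
    have h2 := Subgroup.mem_center_iff.mp hc ⟨v, hv⟩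
    exact congrArg Subtype.val h2
  rw [hbot, Subgroup.mem_bot] at hmem
  apply hc1
  apply Subtype.ext
  apply Subtype.ext
  exact hmem

theorem a9_normalizer_center {V : Subgroup G} :
    Subgroup.normalizer (V : Set G) ≤
      Subgroup.normalizer ((V ⊓ Subgroup.centralizer (V : Set G) : Subgroup G) : Set G) := by
  apply a9_le_normalizer
  intro g hg w hw
  rw [Subgroup.mem_inf] at hw ⊢
  have hgV : ∀ v, v ∈ V ↔ g * v * g⁻¹ ∈ V := Subgroup.mem_normalizer_iff.mp hg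
  refine ⟨(hgV w).mp hw.1, ?_⟩
  rw [Subgroup.mem_centralizer_iff]
  intro v hv
  have hv' : g⁻¹ * v * g ∈ V := by
    apply (hgV (g⁻¹ * v * g)).mpr
    have e : g * (g⁻¹ * v * g) * g⁻¹ = v := by group
    rw [e]
    exact hv
  have h1 : g⁻¹ * v * g * w = w * (g⁻¹ * v * g) := Subgroup.mem_centralizer_iff.mp hw.2 _ hv'
  calc v * (g * w * g⁻¹) = g * (g⁻¹ * v * g * w) * g⁻¹ := by group
    _ = g * (w * (g⁻¹ * v * g)) * g⁻¹ := by rw [h1]
    _ = g * w * g⁻¹ * v := by group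

/-! ### Invariance of `C_P(n)` and `[P, n]` -/

theorem a9_norm_cent {N P : Subgroup G} (hNP : N ≤ Subgroup.normalizer (P : Set G))
    (hN' : ⁅N, N⁆ ≤ Subgroup.centralizer (P : Set G)) {n : G} (hn : n ∈ N) :
    N ≤ Subgroup.normalizer ((P ⊓ Subgroup.centralizer ({n} : Set G) : Subgroup G) : Set G) := by
  apply a9_le_normalizer
  intro g hg x hx
  rw [Subgroup.mem_inf] at hx ⊢
  have hgP : g * x * g⁻¹ ∈ P := (Subgroup.mem_normalizer_iff.mp (hNP hg) x).mp hx.1
  refine ⟨hgP, ?_⟩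
  rw [Subgroup.mem_centralizer_iff]
  intro y hy
  rw [Set.mem_singleton_iff] at hy
  rw [hy]
  have hnx : n * x = x * n := Subgroup.mem_centralizer_iff.mp hx.2 n (Set.mem_singleton n)
  have hc : ⁅n, g⁆ ∈ ⁅N, N⁆ := Subgroup.commutator_mem_commutator hn hg
  have hcP : g * x * g⁻¹ * ⁅n, g⁆ = ⁅n, g⁆ * (g * x * g⁻¹) :=
    Subgroup.mem_centralizer_iff.mp (hN' hc) _ hgP
  have h1 : n * (g * x * g⁻¹) * n⁻¹ = ⁅n, g⁆ * (g * (n * x * n⁻¹) * g⁻¹) * ⁅n, g⁆⁻¹ := by
    rw [commutatorElement_def]; group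
  have h2 : n * x * n⁻¹ = x := by rw [hnx]; group
  have h3 : ⁅n, g⁆ * (g * x * g⁻¹) * ⁅n, g⁆⁻¹ = g * x * g⁻¹ := by rw [← hcP]; group
  calc n * (g * x * g⁻¹) = (n * (g * x * g⁻¹) * n⁻¹) * n := by group
    _ = g * x * g⁻¹ * n := by rw [h1, h2, h3]

theorem a9_norm_comm {N P D₂ : Subgroup G} (hNP : N ≤ Subgroup.normalizer (P : Set G))
    (hN' : ⁅N, N⁆ ≤ Subgroup.centralizer (P : Set G)) {n : G} (hn : n ∈ N)
    (h1 : ∀ x ∈ P, n * x * n⁻¹ * x⁻¹ ∈ D₂)
    (h2 : ∀ d ∈ D₂, ∃ x ∈ P, d = n * x * n⁻¹ * x⁻¹) :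
    N ≤ Subgroup.normalizer (D₂ : Set G) := by
  apply a9_le_normalizer
  intro g hg d hd
  obtain ⟨x, hx, rfl⟩ := h2 d hd
  have hx' : g * x * g⁻¹ ∈ P := (Subgroup.mem_normalizer_iff.mp (hNP hg) x).mp hx
  have hnx' : n * (g * x * g⁻¹) * n⁻¹ ∈ P := (Subgroup.mem_normalizer_iff.mp (hNP hn) _).mp hx'
  have hc : ⁅g, n⁆ ∈ ⁅N, N⁆ := Subgroup.commutator_mem_commutator hg hn
  have hcP : n * (g * x * g⁻¹) * n⁻¹ * ⁅g, n⁆ = ⁅g, n⁆ * (n * (g * x * g⁻¹) * n⁻¹) :=
    Subgroup.mem_centralizer_iff.mp (hN' hc) _ hnx'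
  have key : g * (n * x * n⁻¹ * x⁻¹) * g⁻¹ = n * (g * x * g⁻¹) * n⁻¹ * (g * x * g⁻¹)⁻¹ := by
    have e1 : g * (n * x * n⁻¹ * x⁻¹) * g⁻¹ =
        ⁅g, n⁆ * (n * (g * x * g⁻¹) * n⁻¹) * ⁅g, n⁆⁻¹ * (g * x * g⁻¹)⁻¹ := by
      rw [commutatorElement_def]; group
    rw [e1, ← hcP]; group
  rw [key]
  exact h1 _ hx'

/-! ### The cyclic choice of `D` -/

theorem a9_cyclic_case [Finite G] {p : ℕ} [Fact p.Prime] {V P E L : Subgroup G}
    (hP : IsPGroup p P)
    (hEP : E ≤ Subgroup.centralizer (P : Set G)) {d : G} (hdP : d ∈ P) {b : ℕ}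
    (hdo : orderOf d = p ^ (b + 1)) (htop : ∀ x ∈ P, x ^ p ^ (b + 1) = 1)
    (hL : Nat.card L = p) (hreg : V ⊓ Subgroup.centralizer (L : Set G) = ⊥)
    (hdL : d ^ p ^ b ∈ L) :
    ∃ D : Subgroup G, D ≤ P ∧ E ≤ Subgroup.normalizer (D : Set G) ∧
      Monoid.exponent D = Monoid.exponent P ∧
      ∀ e ∈ D, e ≠ 1 → V ⊓ Subgroup.centralizer ({e} : Set G) = ⊥ := by
  have hDP : Subgroup.zpowers d ≤ P := (Subgroup.zpowers_le).mpr hdP
  refine ⟨Subgroup.zpowers d, hDP, ?_, ?_, ?_⟩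
  · apply a9_le_normalizer
    intro g hg y hy
    have h1 : y * g = g * y := Subgroup.mem_centralizer_iff.mp (hEP hg) y (hDP hy)
    have h2 : g * y * g⁻¹ = y := by rw [← h1]; group
    rw [h2]
    exact hy
  · exact a9_exponent_eq hDP (Subgroup.mem_zpowers d) (by rw [hdo]; exact htop)
  · intro e he he1
    obtain ⟨j, hj1, hjp⟩ := a9_exists_order_p hP (hDP he) he1
    have h1 : e ^ j ∈ Subgroup.zpowers (d ^ p ^ b) :=
      a9_mem_zpowers_of_pow_p hdo ((Subgroup.zpowers d).pow_mem he j) hjp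
    have h2 : e ^ j ∈ L := ((Subgroup.zpowers_le).mpr hdL) h1
    exact a9_reg_of_line hL hreg h2 hj1

/-! ### Package A9 -/

/-- Package A9 of the S1421 project. -/
theorem lemA9 (hF : LemF.{u}) (hC : LemC.{u}) (hD : LemD.{u}) : LemA9.{u} := by
  intro G _ _ hG M hM E hE h hcop p _ A P ctx hNP hCP hN' hq hglob
  have hp : p.Prime := Fact.out
  by_cases hV : sigmaCore M = ⊥
  · refine ⟨P, le_rfl, ctx.normE.trans hNP, rfl, ?_⟩
    intro e _ _
    rw [hV]
    exact bot_inf_eq _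
  have hPcomm : ∀ x ∈ P, ∀ y ∈ P, x * y = y * x := fun x hx y hy => a9_comm ctx.comm hx hy
  have hPC : P ≤ Subgroup.centralizer (A : Set G) := by
    intro x hx
    rw [Subgroup.mem_centralizer_iff]
    intro a ha
    exact hPcomm a (ctx.A_le ha) x hx
  have hEN : E ≤ Subgroup.normalizer (A : Set G) := ctx.normE
  have hpel : ∀ x ∈ Subgroup.normalizer (A : Set G), ∀ k : ℕ, x ^ p ^ k = 1 → x ∈ P := by
    obtain ⟨S, hS⟩ := ctx.sylow
    intro x hx k hk
    rw [← hS]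
    exact a9_mem_sylow_of_normalizer S (by rw [hS]; exact hNP hx) hk
  have hAne : A ≠ ⊥ := by
    intro hbot
    have h1 : Nat.card A = 1 := Subgroup.card_eq_one.mpr hbot
    rw [ctx.cardA] at h1
    have h2 : 1 < p ^ 2 := Nat.one_lt_pow (by norm_num) hp.one_lt
    omega
  obtain ⟨d, hdP, a, hda, hdtop⟩ := a9_exists_top ctx.pgroup
  by_cases hcase : ∃ n ∈ Subgroup.normalizer (A : Set G),
      Nat.card (A ⊓ Subgroup.centralizer ({n} : Set G) : Subgroup G) = p
  · -- Case (i)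
    obtain ⟨n, hn, hnc⟩ := hcase
    obtain ⟨m, k, hm, hmk⟩ := a9_exists_coprime_pow p n
    have hnmP : n ^ m ∈ P := hpel _ (Subgroup.pow_mem _ hn m) k hmk
    have hnmC : n ^ m ∈ Subgroup.centralizer (P : Set G) := by
      rw [Subgroup.mem_centralizer_iff]
      intro y hy
      exact hPcomm y hy _ hnmP
    obtain ⟨j, hj⟩ := (IsPGroup.iff_card.mp ctx.pgroup)
    have hcop' : (Nat.card P).Coprime m := by
      rw [hj]
      exact Nat.Coprime.pow_left j ((Nat.Prime.coprime_iff_not_dvd hp).mpr hm)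
    obtain ⟨D₂, hD₂P, hD₂a, hD₂b, hD₂inf, hD₂sup⟩ := hD P n m ctx.comm (hNP hn) hnmC hcop'
    obtain ⟨D₁, hD₁⟩ : ∃ D₁ : Subgroup G, D₁ = P ⊓ Subgroup.centralizer ({n} : Set G) :=
      ⟨_, rfl⟩
    rw [← hD₁] at hD₂inf hD₂sup
    have hD₁P : D₁ ≤ P := by rw [hD₁]; exact inf_le_left
    have hD₁N : Subgroup.normalizer (A : Set G) ≤ Subgroup.normalizer (D₁ : Set G) := by
      rw [hD₁]
      exact a9_norm_cent hNP hN' hn
    have hD₂N : Subgroup.normalizer (A : Set G) ≤ Subgroup.normalizer (D₂ : Set G) :=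
      a9_norm_comm hNP hN' hn hD₂a hD₂b
    have hX0 : D₁ ⊓ A = A ⊓ Subgroup.centralizer ({n} : Set G) := by
      rw [hD₁]
      exact le_antisymm (le_inf inf_le_right (inf_le_left.trans inf_le_right))
        (le_inf (le_inf (inf_le_left.trans ctx.A_le) inf_le_right) inf_le_left)
    have hcard1 : Nat.card (D₁ ⊓ A : Subgroup G) = p := by rw [hX0]; exact hnc
    have hreg1 : sigmaCore M ⊓ Subgroup.centralizer ((D₁ ⊓ A : Subgroup G) : Set G) = ⊥ :=
      ctx.regLine (D₁ ⊓ A) inf_le_right hcard1 (a9_norm_inf hD₁N le_rfl)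
    have hD₂A : D₂ ⊓ A ≠ A := by
      intro hEq
      have h1 : D₁ ⊓ A ≤ D₁ ⊓ D₂ :=
        le_inf inf_le_left (inf_le_right.trans (by rw [← hEq]; exact inf_le_left))
      rw [hD₂inf, le_bot_iff] at h1
      have h2 : Nat.card (D₁ ⊓ A : Subgroup G) = 1 := Subgroup.card_eq_one.mpr h1
      rw [hcard1] at h2
      exact hp.one_lt.ne' h2
    have hex : (∃ d' ∈ D₁, orderOf d' = p ^ a) ∨ (∃ d' ∈ D₂, orderOf d' = p ^ a) := by
      by_contra hcon
      push_neg at hcon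
      obtain ⟨hc1, hc2⟩ := hcon
      have hle : D₁ ⊔ D₂ ≤ a9_powKer P hPcomm (p ^ (a - 1)) := by
        apply sup_le
        · intro x hx
          exact a9_mem_powKer.mpr ⟨hD₁P hx, a9_pow_pred (hdtop x (hD₁P hx)) (hc1 x hx)⟩
        · intro x hx
          exact a9_mem_powKer.mpr ⟨hD₂P hx, a9_pow_pred (hdtop x (hD₂P hx)) (hc2 x hx)⟩
      have hdK : d ∈ a9_powKer P hPcomm (p ^ (a - 1)) := hle (by rw [hD₂sup]; exact hdP)
      have hd1 : d ^ p ^ (a - 1) = 1 := (a9_mem_powKer.mp hdK).2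
      have hdvd : p ^ a ∣ p ^ (a - 1) := by rw [← hda]; exact orderOf_dvd_of_pow_eq_one hd1
      have hle' : a ≤ a - 1 := (Nat.pow_dvd_pow_iff_le_right hp.one_lt).mp hdvd
      have ha0 : a = 0 := by omega
      exact hc1 1 (Subgroup.one_mem _) (by rw [ha0, orderOf_one, pow_zero])
    rcases hex with ⟨d', hd', hd'o⟩ | ⟨d', hd', hd'o⟩
    · refine ⟨D₁, hD₁P, hEN.trans hD₁N,
        a9_exponent_eq hD₁P hd' (by rw [hd'o]; exact hdtop), ?_⟩
      intro e he he1
      obtain ⟨j, hj1, hjp⟩ := a9_exists_order_p ctx.pgroup (hD₁P he) he1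
      have h1 : e ^ j ∈ D₁ ⊓ A :=
        Subgroup.mem_inf.mpr ⟨D₁.pow_mem he j, ctx.omega _ (P.pow_mem (hD₁P he) j) hjp⟩
      exact a9_reg_of_line hcard1 hreg1 h1 hj1
    · refine ⟨D₂, hD₂P, hEN.trans hD₂N,
        a9_exponent_eq hD₂P hd' (by rw [hd'o]; exact hdtop), ?_⟩
      intro e he he1
      obtain ⟨j, hj1, hjp⟩ := a9_exists_order_p ctx.pgroup (hD₂P he) he1
      have h1 : e ^ j ∈ D₂ ⊓ A :=
        Subgroup.mem_inf.mpr ⟨D₂.pow_mem he j, ctx.omega _ (P.pow_mem (hD₂P he) j) hjp⟩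
      have hcard2 : Nat.card (D₂ ⊓ A : Subgroup G) = p := by
        rcases a9_card_sub ctx.cardA (inf_le_right : D₂ ⊓ A ≤ A) with h2 | h2 | h2
        · exfalso
          have h3 : D₂ ⊓ A = ⊥ := Subgroup.card_eq_one.mp h2
          rw [h3, Subgroup.mem_bot] at h1
          exact hj1 h1
        · exact h2
        · exfalso
          apply hD₂A
          exact Subgroup.eq_of_le_of_card_ge inf_le_right (by rw [h2, ctx.cardA])
      have hreg2 : sigmaCore M ⊓ Subgroup.centralizer ((D₂ ⊓ A : Subgroup G) : Set G) = ⊥ :=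
        ctx.regLine (D₂ ⊓ A) inf_le_right hcard2 (a9_norm_inf hD₂N le_rfl)
      exact a9_reg_of_line hcard2 hreg2 h1 hj1
  · -- Case (ii)
    push_neg at hcase
    have hEM : E ≤ M := hE.1
    have hAE : A ≤ E := ctx.A_le.trans ctx.P_le
    have hAcomm : IsMulCommutative A := ctx.ea.1
    have hEC : E ≤ Subgroup.centralizer (A : Set G) := by
      by_contra hnot
      obtain ⟨z, hzE, hzC, q, hqp, ⟨k, hzk⟩, hzq⟩ := a9_exists_min_prime_power hnot
      haveI : Fact q.Prime := ⟨hqp⟩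
      have hzN : z ∈ Subgroup.normalizer (A : Set G) := hEN hzE
      have hqne : q ≠ p := by
        rintro rfl
        exact hzC (hPC (hpel z hzN k hzk))
      have hqτ : q ∈ tau1 M ∪ tau3 M := hq z hzE q hqp ⟨k, hzk⟩ hzC
      have hAz : A ⊓ Subgroup.centralizer ({z} : Set G) = ⊥ := by
        rcases a9_card_sub ctx.cardA
          (inf_le_left : A ⊓ Subgroup.centralizer ({z} : Set G) ≤ A) with h1 | h1 | h1
        · exact Subgroup.card_eq_one.mp h1
        · exact absurd h1 (hcase z hzN)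
        · exact absurd (a9_mem_centralizer_of_card (by rw [h1, ctx.cardA])) hzC
      have hz1 : z ≠ 1 := by
        rintro rfl
        exact hzC (Subgroup.one_mem _)
      have hWcomm : IsMulCommutative
          (sigmaCore M ⊓ Subgroup.centralizer (sigmaCore M : Set G) : Subgroup G) := by
        refine ⟨⟨fun x y => Subtype.ext ?_⟩⟩
        exact (Subgroup.mem_centralizer_iff.mp (Subgroup.mem_inf.mp y.2).2 x.1
          (Subgroup.mem_inf.mp x.2).1)
      have hWne : sigmaCore M ⊓ Subgroup.centralizer (sigmaCore M : Set G) ≠ ⊥ :=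
        a9_center_ne_bot ctx.nilp hV
      have hMW : M ≤ Subgroup.normalizer
          ((sigmaCore M ⊓ Subgroup.centralizer (sigmaCore M : Set G) : Subgroup G) : Set G) :=
        (Cfsg.Agent.Lib.Helper67.BG.sigmaCore_normalizer M).trans a9_normalizer_center
      have hWcop : (Nat.card (sigmaCore M ⊓ Subgroup.centralizer (sigmaCore M : Set G) :
          Subgroup G)).Coprime (Nat.card A) :=
        Nat.Coprime.coprime_dvd_left (Subgroup.card_dvd_of_le inf_le_left)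
          (Nat.Coprime.coprime_dvd_right (Subgroup.card_dvd_of_le hAE) hcop)
      have hWA : (sigmaCore M ⊓ Subgroup.centralizer (sigmaCore M : Set G)) ⊓
          Subgroup.centralizer (A : Set G) = ⊥ := by
        rw [eq_bot_iff, ← ctx.free]
        exact inf_le_inf_right _ inf_le_left
      have hreg_z : sigmaCore M ⊓ Subgroup.centralizer ({z} : Set G) = ⊥ := by
        apply h z hzE hz1
        intro p' hp' hdvd
        have h1 : p' ∣ q ^ k := hdvd.trans (orderOf_dvd_of_pow_eq_one hzk)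
        have h2 : p' = q := (Nat.prime_dvd_prime_iff_eq hp' hqp).mp (hp'.dvd_of_dvd_pow h1)
        rw [h2]
        exact hqτ
      by_cases hzq1 : z ^ q = 1
      · have h1 := hF A (sigmaCore M ⊓ Subgroup.centralizer (sigmaCore M : Set G)) z q hqp hAcomm
          hAne hzN hzq1 hAz hWcomm hWne (hAE.trans (hEM.trans hMW)) (hMW (hEM hzE)) hWcop hWA
        apply h1
        rw [eq_bot_iff, ← hreg_z]
        exact inf_le_inf_right _ inf_le_left
      · -- the element `x₁` of order `q` in `⟨z ^ q⟩`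
        obtain ⟨i, -, hi⟩ := (Nat.dvd_prime_pow hqp).mp (orderOf_dvd_of_pow_eq_one hzk)
        have hi2 : 2 ≤ i := by
          by_contra hlt
          push_neg at hlt
          interval_cases i
          · rw [pow_zero, orderOf_eq_one_iff] at hi
            exact hz1 hi
          · rw [pow_one] at hi
            apply hzq1
            rw [← hi]
            exact pow_orderOf_eq_one z
        obtain ⟨i', rfl⟩ : ∃ i' : ℕ, i = i' + 2 := ⟨i - 2, by omega⟩
        have hx₁q : (z ^ q ^ (i' + 1)) ^ q = 1 := by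
          rw [← pow_mul, ← pow_succ, ← hi]
          exact pow_orderOf_eq_one z
        have hx₁1 : z ^ q ^ (i' + 1) ≠ 1 := by
          intro h1
          have h2 : q ^ (i' + 2) ∣ q ^ (i' + 1) := by
            rw [← hi]
            exact orderOf_dvd_of_pow_eq_one h1
          have h3 := (Nat.pow_dvd_pow_iff_le_right hqp.one_lt).mp h2
          omega
        have hx₁o : orderOf (z ^ q ^ (i' + 1)) = q := orderOf_eq_prime hx₁q hx₁1
        have hx₁C : z ^ q ^ (i' + 1) ∈ Subgroup.centralizer (A : Set G) := by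
          have h1 : z ^ q ^ (i' + 1) = (z ^ q) ^ q ^ i' := by
            rw [← pow_mul, ← pow_succ']
          rw [h1]
          exact Subgroup.pow_mem _ hzq _
        have hzx₁ : z * z ^ q ^ (i' + 1) = z ^ q ^ (i' + 1) * z :=
          ((Commute.refl z).pow_right _).eq
        obtain ⟨y, hyN, hyE, hyq, hyz, hAy⟩ :=
          hglob q hqτ (z ^ q ^ (i' + 1)) z (E.pow_mem hzE _) hzE hx₁o hx₁C hzx₁ ⟨k, hzk⟩ hzC
        have hcopAq : (Nat.card A).Coprime q := by
          rw [ctx.cardA]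
          exact Nat.Coprime.pow_left 2 ((Nat.coprime_primes hp hqp).mpr (Ne.symm hqne))
        obtain ⟨j, hjq, hj⟩ := hC A z y q hqp hAcomm hAne hcopAq hzN hyN hyz.symm hzq
          (by rw [hyq]; exact Subgroup.one_mem _) hAy
        have hzyN : z * y ^ j ∈ Subgroup.normalizer (A : Set G) :=
          Subgroup.mul_mem _ hzN (Subgroup.pow_mem _ hyN j)
        have hzyC : z * y ^ j ∈ Subgroup.centralizer (A : Set G) := by
          rcases a9_card_sub ctx.cardA
            (inf_le_left : A ⊓ Subgroup.centralizer ({z * y ^ j} : Set G) ≤ A) with h1 | h1 | h1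
          · exact absurd (Subgroup.card_eq_one.mp h1) hj
          · exact absurd h1 (hcase _ hzyN)
          · exact a9_mem_centralizer_of_card (by rw [h1, ctx.cardA])
        have hyjE : y ^ j ∈ E := by
          have h1 : z * y ^ j ∈ E := ctx.cent_le hzyC
          have h2 : y ^ j = z⁻¹ * (z * y ^ j) := by group
          rw [h2]
          exact E.mul_mem (E.inv_mem hzE) h1
        by_cases hj0 : j = 0
        · subst hj0
          rw [pow_zero, mul_one] at hzyC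
          exact hzC hzyC
        · apply hyE
          have hcopjq : j.Coprime q :=
            Nat.Coprime.symm ((Nat.Prime.coprime_iff_not_dvd hqp).mpr
              (Nat.not_dvd_of_pos_of_lt (Nat.pos_of_ne_zero hj0) hjq))
          exact a9_mem_of_pow_mem_coprime hcopjq hyjE (by rw [hyq]; exact E.one_mem)
    have hEP : E ≤ Subgroup.centralizer (P : Set G) := hEC.trans hCP
    -- `a ≠ 0`
    obtain ⟨x₀, hx₀A, hx₀1⟩ : ∃ x ∈ A, x ≠ 1 := by
      by_contra hcon
      push_neg at hcon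
      exact hAne ((Subgroup.eq_bot_iff_forall A).mpr hcon)
    have ha0 : a ≠ 0 := by
      intro ha0
      have h1 := hdtop x₀ (ctx.A_le hx₀A)
      rw [ha0, pow_zero, pow_one] at h1
      exact hx₀1 h1
    obtain ⟨b, rfl⟩ : ∃ b : ℕ, a = b + 1 := ⟨a - 1, by omega⟩
    have hUA : a9_powIm P hPcomm (p ^ b) ≤ A := by
      intro y hy
      obtain ⟨x, hx, rfl⟩ := a9_mem_powIm.mp hy
      apply ctx.omega _ (P.pow_mem hx _)
      rw [← pow_mul, ← pow_succ]
      exact hdtop x hx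
    have hdU : d ^ p ^ b ∈ a9_powIm P hPcomm (p ^ b) := a9_mem_powIm.mpr ⟨d, hdP, rfl⟩
    have hd1 : d ^ p ^ b ≠ 1 := by
      intro h1
      have h2 : p ^ (b + 1) ∣ p ^ b := by
        rw [← hda]
        exact orderOf_dvd_of_pow_eq_one h1
      have h3 := (Nat.pow_dvd_pow_iff_le_right hp.one_lt).mp h2
      omega
    have hUN : Subgroup.normalizer (A : Set G) ≤
        Subgroup.normalizer ((a9_powIm P hPcomm (p ^ b) : Subgroup G) : Set G) := by
      apply a9_le_normalizer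
      intro g hg y hy
      obtain ⟨x, hx, rfl⟩ := a9_mem_powIm.mp hy
      refine a9_mem_powIm.mpr ⟨g * x * g⁻¹, (Subgroup.mem_normalizer_iff.mp (hNP hg) x).mp hx, ?_⟩
      exact conj_pow
    rcases a9_card_sub ctx.cardA hUA with h1 | h1 | h1
    · exfalso
      have h2 : a9_powIm P hPcomm (p ^ b) = ⊥ := Subgroup.card_eq_one.mp h1
      rw [h2, Subgroup.mem_bot] at hdU
      exact hd1 hdU
    · exact a9_cyclic_case ctx.pgroup hEP hdP hda hdtop h1
        (ctx.regLine _ hUA h1 hUN) hdU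
    · have hUeq : a9_powIm P hPcomm (p ^ b) = A :=
        Subgroup.eq_of_le_of_card_ge hUA (by rw [h1, ctx.cardA])
      obtain ⟨A₁, hA₁A, hA₁c, hA₁reg⟩ := ctx.exReg
      have hA₁ne : A₁ ≠ ⊥ := by
        intro hbot
        have h2 : Nat.card A₁ = 1 := Subgroup.card_eq_one.mpr hbot
        rw [hA₁c] at h2
        exact hp.one_lt.ne' h2
      obtain ⟨u, huA₁, hu1⟩ : ∃ x ∈ A₁, x ≠ 1 := by
        by_contra hcon
        push_neg at hcon
        exact hA₁ne ((Subgroup.eq_bot_iff_forall A₁).mpr hcon)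
      have huU : u ∈ a9_powIm P hPcomm (p ^ b) := by rw [hUeq]; exact hA₁A huA₁
      obtain ⟨x, hxP, hxu⟩ := a9_mem_powIm.mp huU
      have hxo : orderOf x = p ^ (b + 1) :=
        orderOf_eq_prime_pow (by rw [hxu]; exact hu1) (hdtop x hxP)
      exact a9_cyclic_case ctx.pgroup hEP hxP hxo hdtop hA₁c hA₁reg (by rw [hxu]; exact huA₁)

end Cfsg.Agent.Lib.Helper3.BG
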